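import Mathlib
import Cfsg.Agent.Base
import Cfsg.Agent.Lib.ThreeTrans.Primitive
import Cfsg.Agent.Lib.KGrp.Shape

/-! 3-transposition groups with disconnected commuting graph: reduction to the subgroup `L⟨d⟩`. -/

set_option autoImplicit false

namespace H80.TD

open Cfsg Subgroup H94
open scoped commutatorElement

universe u

/-- a centreless group with simple derived group of index two generated by a class of 3-transpositions -/
structure Two {H : Type*} [Group H] (E : Set H) : Prop where
  cls : IsThreeTranspositionClass E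
  cen : center H = ⊥
  simple : IsSimpleGroup (commutator H)
  width : ∃ a ∈ E, ∃ b ∈ E, a ≠ b ∧ Commute a b
  nonab : ¬ IsMulCommutative (commutator H)
  out : ∀ d ∈ E, d ∉ commutator H

theorem comm_of_simple_pgroup {K : Type*} [Group K] [Finite K] [IsSimpleGroup K] {p : ℕ} [Fact p.Prime]
    (h : IsPGroup p K) : IsMulCommutative K := by
  have := h.center_nontrivial
  have h1 : center K = ⊤ := (Normal.eq_bot_or_eq_top inferInstance).resolve_left
    ((nontrivial_iff_ne_bot (center K)).1 this)
  exact ⟨⟨fun a b => (mem_center_iff.1 (h1 ▸ mem_top b) a)⟩⟩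

theorem perm_three_of_card {X : Type*} [Group X] [Finite X] (h6 : Nat.card X = 6) {d : X}
    (hd : orderOf d = 2) (hc : d ∉ center X) : Nonempty (X ≃* Equiv.Perm (Fin 3)) := by
  classical
  have hz : Nat.card (zpowers d) = 2 := by rw [Nat.card_zpowers, hd]
  have hi : (zpowers d).index = 3 := by
    have := (zpowers d).index_mul_card
    rw [hz, h6] at this
    omega
  have hk : (MulAction.toPermHom X (X ⧸ zpowers d)).ker = ⊥ := by
    rw [← normalCore_eq_ker]
    have h1 : Nat.card (zpowers d).normalCore ∣ 2 := hz ▸ card_dvd_of_le (normalCore_le _)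
    rcases (Nat.dvd_prime Nat.prime_two).1 h1 with h2 | h2
    · exact eq_bot_of_card_eq _ h2
    · exfalso
      have h3 : (zpowers d).normalCore = zpowers d :=
        eq_of_le_of_card_ge (normalCore_le _) (by rw [h2, hz])
      have hN : (zpowers d).Normal := h3 ▸ inferInstance
      apply hc
      rw [mem_center_iff]
      intro g
      have h4 := hN.conj_mem d (mem_zpowers d) g
      rw [mem_zpowers_iff_mem_range_orderOf, hd] at h4
      simp only [Finset.mem_image, Finset.mem_range] at h4
      obtain ⟨k, hk, e⟩ := h4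
      interval_cases k
      · exfalso
        rw [pow_zero, eq_comm, mul_inv_eq_one, mul_eq_left] at e
        rw [e, orderOf_one] at hd
        omega
      · rw [pow_one, eq_mul_inv_iff_mul_eq] at e
        exact e.symm
  have hq : Nat.card (X ⧸ zpowers d) = 3 := hi
  have e := Finite.equivFinOfCardEq hq
  have hb : Function.Bijective (MulAction.toPermHom X (X ⧸ zpowers d)) := by
    rw [Nat.bijective_iff_injective_and_card]
    refine ⟨(MonoidHom.ker_eq_bot_iff _).1 hk, ?_⟩
    rw [h6, Nat.card_perm, hq]; rfl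
  exact ⟨(MulEquiv.ofBijective _ hb).trans e.permCongrHom⟩

variable {G : Type u} [Group G] [Finite G] {D : Set G}

omit [Finite G] in
theorem card_dvd_out {L : Subgroup G} [L.Normal] (hC : centralizer (L : Set G) = ⊥) :
    Nat.card (G ⧸ L) ∣ Nat.card (Out L) := by
  let ψ : G →* Out L := (QuotientGroup.mk' _).comp MulAut.conjNormal
  have hk : ψ.ker = L := by
    ext g
    rw [MonoidHom.mem_ker]
    show (QuotientGroup.mk (MulAut.conjNormal g) : Out L) = 1 ↔ _
    rw [QuotientGroup.eq_one_iff]
    constructor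
    · rintro ⟨l, hl⟩
      have : (l : G)⁻¹ * g ∈ centralizer (L : Set G) := by
        rw [mem_centralizer_iff]
        intro x hx
        have h1 := congrArg Subtype.val (MulEquiv.congr_fun hl ⟨x, hx⟩)
        simp only [MulAut.conj_apply, coe_mul, coe_inv, MulAut.conjNormal_apply] at h1
        calc x * ((l : G)⁻¹ * g) = (l : G)⁻¹ * (l * x * (l : G)⁻¹) * g := by group
          _ = (l : G)⁻¹ * g * x := by rw [h1]; group
      rw [hC, mem_bot, inv_mul_eq_one] at this
      rw [← this]; exact l.2
    · intro hg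
      exact ⟨⟨g, hg⟩, by ext x; simp⟩
  have := card_dvd_of_injective (QuotientGroup.kerLift ψ) (QuotientGroup.kerLift_injective ψ)
  rwa [hk] at this

theorem exists_two (hD : IsThreeTranspositionClass D) {L : Subgroup G} [hN : L.Normal] [IsSimpleGroup L]
    (hna : ¬ IsMulCommutative L) (hC : centralizer (L : Set G) = ⊥) {d : G} (hd : d ∈ D) (hdL : d ∉ L) :
    ∃ (H : Subgroup G) (E : Set H), Two E ∧ Nonempty (commutator H ≃* L) ∧ ∀ x ∈ E, (x : G) ∈ D := by
  have h := TT.ofClass hD
  let H : Subgroup G := zpowers d ⊔ L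
  have dH : d ∈ H := mem_sup_left (mem_zpowers d)
  have LH : L ≤ H := le_sup_right
  let E : Set H := conjugatesOf (⟨d, dH⟩ : H)
  have hE : ∀ x ∈ E, (x : G) ∈ D := by
    intro x hx
    obtain ⟨g, rfl⟩ := isConj_iff.1 hx
    exact h.conj g d hd
  have dE : (⟨d, dH⟩ : H) ∈ E := IsConj.refl _
  have hsup : zpowers (⟨d, dH⟩ : H) ⊔ L.subgroupOf H = ⊤ := by
    apply map_injective H.subtype_injective
    rw [Subgroup.map_sup, MonoidHom.map_zpowers, subgroupOf_map_subtype, inf_eq_left.2 LH,
      ← MonoidHom.range_eq_map, range_subtype]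
    rfl
  have d2 : (⟨d, dH⟩ : H) * ⟨d, dH⟩ = 1 := Subtype.ext (h.mul_self hd)
  have hLL : ⁅L, L⁆ = L := by
    have h1 : commutator L = ⊤ := by
      refine (Normal.eq_bot_or_eq_top inferInstance).resolve_left (fun h0 => hna ⟨⟨fun a b => ?_⟩⟩)
      have : ⁅a, b⁆ ∈ commutator L := commutator_mem_commutator (mem_top a) (mem_top b)
      rw [h0, mem_bot] at this
      exact commutatorElement_eq_one_iff_mul_comm.1 this
    have h2 := Subgroup.map_commutator (⊤ : Subgroup L) ⊤ L.subtype
    rw [← _root_.commutator_def, h1, ← MonoidHom.range_eq_map, range_subtype] at h2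
    exact h2.symm
  have hcomm : commutator H = L.subgroupOf H := by
    refine le_antisymm (commutator_le_of_index_le_two (index_le_two_of_zpowers_sup d2 hsup).1) ?_
    intro x hx
    have h2 := Subgroup.map_commutator (⊤ : Subgroup H) ⊤ H.subtype
    rw [← _root_.commutator_def, ← MonoidHom.range_eq_map, range_subtype] at h2
    have h3 : (x : G) ∈ (commutator H).map H.subtype := by
      rw [h2]; exact commutator_mono LH LH (hLL.symm ▸ hx)
    exact (mem_map_iff_mem H.subtype_injective).1 h3
  have e : commutator H ≃* L := (MulEquiv.subgroupCongr hcomm).trans (subgroupOfEquivOfLe LH)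
  have hgen : closure E = ⊤ := by
    let N : Subgroup L := ((closure E).map H.subtype).subgroupOf L
    have hEN : (closure E).Normal := (normalClosure_normal (s := {(⟨d, dH⟩ : H)})) |> fun hn => by
      have : normalClosure {(⟨d, dH⟩ : H)} = closure E := by
        rw [normalClosure]; congr 1; ext x; simp [Group.conjugatesOfSet, E]
      exact this ▸ hn
    have hNN : N.Normal := by
      constructor
      rintro n ⟨x, hx, e⟩ g
      exact ⟨_, hEN.conj_mem x hx ⟨g, LH g.2⟩, by
        have e' : (x : G) = n := e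
        simp [e']⟩
    have hN1 : N ≠ ⊥ := by
      intro h0
      apply h.ne_one hd
      rw [← mem_bot, ← hC, mem_centralizer_iff]
      intro l hl
      have h1 : (⟨d * (l * d * l⁻¹), h.mul_conj_mem hd hl⟩ : L) ∈ N :=
        ⟨⟨d, dH⟩ * (⟨l, LH hl⟩ * ⟨d, dH⟩ * (⟨l, LH hl⟩ : H)⁻¹), mul_mem (subset_closure dE)
          (hEN.conj_mem _ (subset_closure dE) _), rfl⟩
      rw [h0, mem_bot] at h1
      have h2 : d * (l * d * l⁻¹) = 1 := congrArg Subtype.val h1
      calc l * d = d * (d * (l * d * l⁻¹)) * l := by rw [← mul_assoc d d, h.mul_self hd]; group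
        _ = d * l := by rw [h2, mul_one]
    have hNt := (Normal.eq_bot_or_eq_top hNN).resolve_left hN1
    rw [eq_top_iff, ← hsup, sup_le_iff, zpowers_le]
    refine ⟨subset_closure dE, fun x hx => ?_⟩
    have : (⟨x, hx⟩ : L) ∈ N := hNt ▸ mem_top _
    exact (mem_map_iff_mem H.subtype_injective).1 this
  have hcls : IsThreeTranspositionClass E := by
    refine ⟨⟨fun x hx => ?_, fun x hx y hy => ?_⟩, ⟨_, dE, rfl⟩, hgen⟩
    · rw [← orderOf_coe]; exact h.orderOf (hE x hx)
    · exact (hD.1.2 _ (hE x hx) _ (hE y hy)).imp (fun e => Subtype.ext e) fun e => Subtype.ext e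
  have hs : IsSimpleGroup (commutator H) := e.isSimpleGroup
  have hna' : ¬ IsMulCommutative (commutator H) := fun hc => hna ⟨⟨fun a b => by
    obtain ⟨a, rfl⟩ := e.surjective a
    obtain ⟨b, rfl⟩ := e.surjective b
    rw [← map_mul, ← map_mul, hc.is_comm.comm]⟩⟩
  refine ⟨H, E, ⟨hcls, ?_, hs, ?_, hna', fun x hx hm => hdL ?_⟩, ⟨e⟩, hE⟩
  · rw [eq_bot_iff]
    intro z hz
    have : (z : G) ∈ centralizer (L : Set G) := by
      rw [mem_centralizer_iff]
      intro l hl
      exact congrArg Subtype.val (mem_center_iff.1 hz ⟨l, LH hl⟩)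
    rw [hC, mem_bot] at this
    exact mem_bot.2 (Subtype.ext this)
  · by_contra hw
    push Not at hw
    have h1 := (width_one_iff (group_of_class hcls) dE).1 fun a ha b hb hc => by
      by_contra hne; exact hw a ha b hb hne hc
    have h2 := commutator_le_of_index_le_two (index_le_two_of_zpowers_sup d2 h1).1
    have : Fact (Nat.Prime 3) := ⟨Nat.prime_three⟩
    exact hna' (comm_of_simple_pgroup (H1.isPGroup_pCore.to_le h2))
  · obtain ⟨g, rfl⟩ := isConj_iff.1 hx
    have h1 := (inferInstance : (commutator H).Normal).conj_mem _ hm g⁻¹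
    rw [hcomm, mem_subgroupOf] at h1
    simpa [mul_assoc] using h1

theorem main (hD : IsThreeTranspositionClass D) (hZ : center G = ⊥) (h2 : pCore 2 G = ⊥)
    (h3 : pCore 3 G = ⊥) (hdisc : ¬ (commutingGraph D).Connected) (F : Subgroup G) [F.Normal]
    (hF : F = generalizedFittingSubgroup G) {P : Prop}
    (key : ∀ (H : Type u) [Group H] [Finite H] (E : Set H), Two E → (commutator H ≃* F) →
      (∃ k, Nat.card (Out (commutator H)) ∣ 2 ^ k) ∨ (Nat.card (Out (commutator H)) ∣ 24 ∧ P)) :
    Nonempty (G ⧸ F ≃* Equiv.Perm (Fin 3)) ∧ P := by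
  have h := TT.ofClass hD
  obtain ⟨d, hd, -⟩ := hD.2.1
  have hD2 : ∃ a ∈ D, ∃ b ∈ D, a ≠ b := by
    by_contra hn
    push Not at hn
    apply h.ne_one hd
    rw [← mem_bot, ← hZ]
    exact mem_center_of_commute hD.2.2 fun e he => hn e he d hd ▸ Commute.refl _
  obtain ⟨L, hN, hq, hlay, hL⟩ := exists_quasisimple hD hD2 (h2 ▸ bot_le) (h3 ▸ bot_le)
  rw [hZ, sup_bot_eq, ← hF] at hL
  subst hL
  have hLL : ⁅F, F⁆ = F := by
    have h2 := Subgroup.map_commutator (⊤ : Subgroup F) ⊤ F.subtype
    rw [← _root_.commutator_def, hq.1.commutator_eq_top, ← MonoidHom.range_eq_map, range_subtype] at h2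
    exact h2.symm
  have hC : centralizer (F : Set G) = ⊥ := by
    rcases le_center_or_of_commuting hD (N := centralizer (F : Set G)) (M := F)
      (fun n hn m hm => (mem_centralizer_iff.1 hn m hm).symm) hLL hlay.ge with h1 | h1
    · rwa [hZ, le_bot_iff] at h1
    · exact absurd h1 (not_le_center_of_isQuasisimple hq)
  have hZF : center F = ⊥ := by
    rw [eq_bot_iff]
    intro z hz
    have : (z : G) ∈ centralizer (F : Set G) := by
      rw [mem_centralizer_iff]
      intro l hl
      exact congrArg Subtype.val (mem_center_iff.1 hz ⟨l, hl⟩)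
    rw [hC, mem_bot] at this
    exact mem_bot.2 (Subtype.ext this)
  have hs : IsSimpleGroup F := by
    have := hq.2
    exact ((QuotientGroup.quotientMulEquivOfEq hZF).trans QuotientGroup.quotientBot).symm.isSimpleGroup
  have hna : ¬ IsMulCommutative F := by
    intro hc
    have : center F = ⊤ := by
      rw [eq_top_iff]; intro x _; exact mem_center_iff.2 fun y => hc.is_comm.comm y x
    rw [hZF] at this
    exact bot_ne_top this
  have hw1 : ∀ {L : Subgroup G}, L = F → (∃ a ∈ D, ∃ b ∈ D, a ≠ b ∧ Commute a b) → ¬ F.index ≤ 2 := by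
    intro L _ hw hi
    exact hdisc (connected_iff.2 ⟨⟨d, hd⟩, reach_commute_of_primitive h
      (primitive_of_index_le_two hD hD2 (h2 ▸ bot_le) (h3 ▸ bot_le) hq hi) hw⟩)
  have hdF : d ∉ F := by
    intro hdF
    have ht : F = ⊤ := by
      rw [eq_top_iff, ← hD.2.2, closure_le]
      intro e he
      obtain ⟨g, rfl⟩ := exists_conj_of_class hD hd he
      exact hN.conj_mem d hdF g
    refine hw1 rfl ?_ (by rw [ht, index_top]; omega)
    by_contra hw
    push Not at hw
    have h1 := (width_one_iff (group_of_class hD) hd).1 fun a ha b hb hc => by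
      by_contra hne; exact hw a ha b hb hne hc
    rw [h3, sup_bot_eq] at h1
    obtain ⟨a, ha, b, hb, hab⟩ := hD2
    obtain ⟨i, rfl⟩ : a ∈ zpowers d := h1 ▸ mem_top a
    obtain ⟨j, rfl⟩ : b ∈ zpowers d := h1 ▸ mem_top b
    exact hw _ ha _ hb hab (Commute.zpow_zpow_self d i j)
  obtain ⟨H, E, hT, ⟨e⟩, hE⟩ := exists_two hD hna hC hd hdF
  have hi : ¬ F.index ≤ 2 := by
    obtain ⟨a, ha, b, hb, hab, hc⟩ := hT.width
    exact hw1 rfl ⟨a, hE a ha, b, hE b hb, fun e => hab (Subtype.ext e), hc.map H.subtype⟩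
  have hdv : Nat.card (G ⧸ F) ∣ Nat.card (Out (commutator H)) := by
    rw [Nat.card_congr (H61.KG.outCongr e).toEquiv]; exact card_dvd_out hC
  -- the quotient has width one
  have h1 : ∀ x ∈ D, QuotientGroup.mk' F x ≠ 1 := by
    intro x hx h1
    obtain ⟨g, rfl⟩ := exists_conj_of_class hD hx hd
    exact hdF (hN.conj_mem x ((QuotientGroup.eq_one_iff x).1 h1) g)
  have hT' := h.map (QuotientGroup.mk' F) (QuotientGroup.mk'_surjective F) h1
  have hgen : closure (QuotientGroup.mk' F '' D) = ⊤ := by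
    rw [← MonoidHom.map_closure, hD.2.2, ← MonoidHom.range_eq_map,
      MonoidHom.range_eq_top.2 (QuotientGroup.mk'_surjective F)]
  have hG : IsThreeTranspositionGroup (QuotientGroup.mk' F '' D) := ⟨hT'.1, hT'.2, hgen⟩
  have hsup := (width_one_iff hG ⟨d, hd, rfl⟩).1 (by
    rintro _ ⟨a, ha, rfl⟩ _ ⟨b, hb, rfl⟩ hc
    have h4 : a * b * a⁻¹ * b⁻¹ ∈ F := by
      rw [← QuotientGroup.eq_one_iff]
      exact commutatorElement_eq_one_iff_commute.2 hc
    have h5 := mul_mem_of_commutator_mem hD hq ha hb h4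
    exact QuotientGroup.eq.2 (by rwa [h.inv ha]))
  have hidx := index_le_two_of_zpowers_sup (hT'.mul_self ⟨d, hd, rfl⟩) hsup
  have : Fact (Nat.Prime 3) := ⟨Nat.prime_three⟩
  obtain ⟨j, hj⟩ := IsPGroup.iff_card.1 (H1.isPGroup_pCore (p := 3) (G := G ⧸ F))
  have hmul := (pCore 3 (G ⧸ F)).index_mul_card
  rw [hj] at hmul
  have hX : Nat.card (G ⧸ F) = F.index := rfl
  have ho : orderOf (QuotientGroup.mk' F d) = 2 := hT'.orderOf ⟨d, hd, rfl⟩
  have h2X : 2 ∣ Nat.card (G ⧸ F) := ho ▸ orderOf_dvd_natCard _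
  have hj1 : 1 ≤ j := by
    by_contra h0
    have : j = 0 := by omega
    subst this
    omega
  rcases key H E hT e with ⟨k, hk⟩ | ⟨hk, hP⟩
  · exfalso
    have h5 : 3 ∣ 2 ^ k :=
      ((dvd_pow_self 3 (by omega)).trans (Dvd.intro_left _ hmul)).trans (hdv.trans hk)
    exact absurd (Nat.prime_three.dvd_of_dvd_pow h5) (by norm_num)
  · refine ⟨?_, hP⟩
    have h5 : 3 ^ j ∣ 24 := (Dvd.intro_left _ hmul).trans (hdv.trans hk)
    have hj2 : j = 1 := by
      by_contra h0
      have : 3 ^ 2 ∣ 24 := (pow_dvd_pow 3 (by omega)).trans h5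
      norm_num at this
    subst hj2
    have h6 : Nat.card (G ⧸ F) = 6 := by omega
    refine perm_three_of_card h6 ho (fun hc => hi ?_)
    have h7 : zpowers (QuotientGroup.mk' F d) = ⊤ := by
      rw [eq_top_iff, ← hgen, closure_le]
      rintro _ ⟨x, hx, rfl⟩
      obtain ⟨g, rfl⟩ := exists_conj_of_class hD hd hx
      rw [map_mul, map_mul, mem_center_iff.1 hc, map_inv, mul_inv_cancel_right]
      exact mem_zpowers _
    have h8 := Nat.card_zpowers (QuotientGroup.mk' F d)
    rw [h7, card_top, ho] at h8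
    omega

end H80.TD
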