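import Mathlib
import Cfsg.Agent.Lib.Refl3.Basic
import Cfsg.Agent.Lib.Orth12.Simple
import Cfsg.Agent.S5359

/-! The derived group of a projective reflection group over the field with three elements. -/

set_option autoImplicit false

namespace H80.TD

open Cfsg Subgroup H94 H12 Module

theorem center_eq_bot_of_simple {K : Type*} [Group K] [IsSimpleGroup K] (h : ¬ IsMulCommutative K) :
    center K = ⊥ := by
  refine (Normal.eq_bot_or_eq_top inferInstance).resolve_right (fun h1 => h ⟨⟨fun a b => ?_⟩⟩)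
  exact mem_center_iff.1 (h1 ▸ mem_top b) a

theorem quot_center_of_surj {X K : Type*} [Group X] [Group K] (f : X →* K) (hf : Function.Surjective f)
    (hk : f.ker ≤ center X) (hc : center K = ⊥) : Nonempty (K ≃* X ⧸ center X) := by
  have : f.ker = center X := by
    refine le_antisymm hk (fun z hz => ?_)
    rw [MonoidHom.mem_ker, ← mem_bot, ← hc, mem_center_iff]
    intro k
    obtain ⟨x, rfl⟩ := hf k
    rw [← map_mul, ← map_mul, mem_center_iff.1 hz x]
  exact ⟨(QuotientGroup.quotientKerEquivOfSurjective f hf).symm.trans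
    (QuotientGroup.quotientMulEquivOfEq this)⟩

theorem quot_center_of_equiv {X K : Type*} [Group X] [Group K] (e : K ≃* X) (hc : center K = ⊥) :
    Nonempty (K ≃* X ⧸ center X) :=
  quot_center_of_surj e.symm.toMonoidHom e.symm.surjective
    (by rw [(MonoidHom.ker_eq_bot_iff _).2 e.symm.injective]; exact bot_le) hc

theorem commutator_le_of_index_two {X : Type*} [Group X] {N : Subgroup X} (h : N.index = 2) :
    commutator X ≤ N := by
  rw [_root_.commutator_def, commutator_le]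
  intro a _ b _
  rw [commutatorElement_def]
  simp only [mul_mem_iff_of_index_two h, inv_mem_iff]
  tauto

theorem Om_le_Rc' {n : ℕ} (hn : 5 ≤ n) {Q : QuadraticForm (ZMod 3) (Fin n → ZMod 3)}
    (hQ : (QuadraticMap.polarBilin Q).Nondegenerate) : Om Q ≤ Rc Q 1 := by
  rcases hn.eq_or_lt with rfl | hn'
  · have h1 := Cfsg.Agent.S5359.result 5 le_rfl (by decide) Q hQ 1 one_ne_zero
    obtain ⟨e⟩ := reflectionSubgroup_equiv Q 1
    have e' : isometryGroup (ZMod 3) (⇑Q) ≃* O Q := isoEquiv Q fun _ => rfl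
    have : Finite (O Q) := Finite.of_equiv _ e'.toEquiv
    have h2 := (reflectionSubgroup (⇑Q) 1).index_mul_card
    have h3 := (Rc Q 1).index_mul_card
    rw [h1, Nat.card_congr e.toEquiv, Nat.card_congr e'.toEquiv, ← h3] at h2
    have h4 : (Rc Q 1).index = 2 := (Nat.eq_of_mul_eq_mul_right Nat.card_pos h2).symm
    exact commutator_le_of_index_two h4
  · exact Om_le_Rc (nondeg_iff.2 hQ) one_ne_zero (by simp only [Module.finrank_fin_fun]; omega)

theorem refl_pom {n : ℕ} (hn : 5 ≤ n) {Q : QuadraticForm (ZMod 3) (Fin n → ZMod 3)}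
    (hQ : (QuadraticMap.polarBilin Q).Nondegenerate) {H : Type*} [Group H]
    (e : H ≃* reflectionSubgroup (⇑Q) 1 ⧸ center (reflectionSubgroup (⇑Q) 1))
    (hc : center (commutator H) = ⊥) : Nonempty (commutator H ≃* Om Q ⧸ center (Om Q)) := by
  obtain ⟨e1⟩ := reflectionSubgroup_equiv Q 1
  have e2 := e.trans (centerQuotCongr e1)
  have hle := Om_le_Rc' hn hQ
  have hp := commutator_Om (nondeg_iff.2 hQ) (by simpa using hn)
  let π : Rc Q 1 →* H := e2.symm.toMonoidHom.comp (QuotientGroup.mk' _)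
  have hπ : Function.Surjective π := e2.symm.surjective.comp (QuotientGroup.mk'_surjective _)
  have hm : (commutator (Rc Q 1)).map π = commutator H := by
    rw [_root_.commutator_def, map_commutator, ← MonoidHom.range_eq_map, MonoidHom.range_eq_top.2 hπ]
    rfl
  have hcm : (commutator (Rc Q 1)).map (Rc Q 1).subtype = Om Q := by
    rw [map_subtype_commutator]
    exact le_antisymm (commutator_mono le_top le_top) (hp.ge.trans (commutator_mono hle hle))
  have hmem : ∀ x : Rc Q 1, x ∈ commutator (Rc Q 1) ↔ x.1 ∈ Om Q := fun x => by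
    rw [← hcm]; exact (mem_map_iff_mem (Rc Q 1).subtype_injective).symm
  let f : Om Q →* commutator H := (π.comp (inclusion hle)).codRestrict _ fun x =>
    hm ▸ ⟨_, (hmem _).2 x.2, rfl⟩
  refine quot_center_of_surj f ?_ ?_ hc
  · rintro ⟨y, hy⟩
    obtain ⟨x, hx, rfl⟩ : y ∈ (commutator (Rc Q 1)).map π := hm.symm ▸ hy
    exact ⟨⟨x.1, (hmem x).1 hx⟩, rfl⟩
  · intro x hx
    have h1 : π (inclusion hle x) = 1 := congrArg Subtype.val hx
    have h2 : inclusion hle x ∈ center (Rc Q 1) := by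
      rw [← QuotientGroup.eq_one_iff]
      exact e2.symm.injective (h1.trans (map_one _).symm)
    rw [mem_center_iff]
    intro y
    exact Subtype.ext (congrArg (fun t : Rc Q 1 => t.1) (mem_center_iff.1 h2 (inclusion hle y)))

theorem aniso3 : ∀ z₁ z₂ : ZMod 3, z₁ ^ 2 + 0 * z₁ * z₂ + 1 * z₂ ^ 2 = 0 → z₁ = 0 ∧ z₂ = 0 := by decide

theorem O_cases {n : ℕ} (hn : 2 ≤ n) {Q : QuadraticForm (ZMod 3) (Fin n → ZMod 3)}
    (hQ : (QuadraticMap.polarBilin Q).Nondegenerate) :
    (∃ m, n = 2 * m + 1 ∧ Nonempty (O Q ≃* isometryGroup (ZMod 3) (quadFormOdd m (ZMod 3)))) ∨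
    (∃ m, n = 2 * m ∧ Nonempty (O Q ≃* isometryGroup (ZMod 3) (quadFormPlus m (ZMod 3)))) ∨
    (∃ m, n = 2 * m + 2 ∧ Nonempty (O Q ≃* isometryGroup (ZMod 3) (quadFormMinus m (ZMod 3) 0 1))) := by
  have hQ' := nondeg_iff.2 hQ
  rcases Nat.even_or_odd' n with ⟨m, rfl | rfl⟩
  · by_cases hd : H66.gramDet Q (Pi.basisFun (ZMod 3) (Fin (2 * m))) = (-1) ^ m
    · exact Or.inr (Or.inl ⟨m, rfl, O_equiv_plus hQ' _ (by simp) hd⟩)
    · obtain ⟨k, rfl⟩ : ∃ k, m = k + 1 := ⟨m - 1, by omega⟩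
      refine Or.inr (Or.inr ⟨k, rfl, ?_⟩)
      obtain ⟨Φ, hΦ⟩ := exists_isometry hQ' (nondeg_QMinus (a := 0) (b := 1) aniso3 k)
        (Pi.basisFun (ZMod 3) (Fin (2 * (k + 1)))) (Pi.basisFun _ _) (by simp; ring) (by
          have h1 := H66.gramDet_ne_zero hQ (Pi.basisFun (ZMod 3) (Fin (2 * (k + 1))))
          have h2 : H66.gramDet (QMinus k (0 : ZMod 3) 1) (Pi.basisFun (ZMod 3) ((Fin k ⊕ Fin k) ⊕ Fin 2)) =
              (-1) ^ k := by
            rw [H66.gramDet, gram_QMinus, Matrix.det_fromBlocks_zero₂₁, det_antidiag, Matrix.det_fin_two_of]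
            exact mul_one _
          rw [h2]
          rw [pow_succ] at hd
          have key : ∀ x y : ZMod 3, (y = 1 ∨ y = -1) → ¬ x = y * -1 → x ≠ 0 → x = y := by decide
          exact key _ _ (neg_one_pow_eq_or (ZMod 3) k) hd h1)
      exact ⟨(congrO Φ hΦ).trans (minusIso k 0 1).symm⟩
  · exact Or.inl ⟨m, rfl, O_equiv_odd hQ' (by simp)⟩

end H80.TD
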