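import Mathlib
import Cfsg.Agent.Lib.TTRad.Disc
import Cfsg.Agent.Lib.TTRad.DiscO3
import Cfsg.Agent.Lib.KGrp.Classical
import Cfsg.Agent.Lib.ClGeo.F4
import Cfsg.Agent.S0301
import Cfsg.Agent.S0302
import Cfsg.Agent.S0303
import Cfsg.Agent.S0814

/-! The order of the outer automorphism group of the derived groups in Fischer's list. -/

set_option autoImplicit false

namespace H80.TD

open Cfsg Cfsg.Agent Subgroup H12

/-- the outer automorphism group is a 2-group -/
def T2 (K : Type*) [Group K] : Prop := ∃ k, Nat.card (Out K) ∣ 2 ^ k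

section
variable {K L : Type*} [Group K] [Group L]

theorem T2.congr (h : T2 L) (e : K ≃* L) : T2 K := by
  obtain ⟨k, hk⟩ := h
  exact ⟨k, by rwa [Nat.card_congr (H61.KG.outCongr e).toEquiv]⟩

theorem card_of_hom {C : Type*} [Group C] (φ : L →* C) (h : Function.Surjective φ) :
    Nat.card L = Nat.card C * Nat.card φ.ker := by
  rw [← φ.ker.index_mul_card, index_ker, MonoidHom.range_eq_top.2 h, card_top]

theorem card_out_mul (hc : center K = ⊥) : Nat.card (Out K) * Nat.card K = Nat.card (MulAut K) := by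
  have h1 : Nat.card (Inn K) = Nat.card K := by
    refine (Nat.card_congr (MonoidHom.ofInjective ?_).toEquiv).symm
    rw [← MonoidHom.ker_eq_bot_iff, eq_bot_iff, ← hc]
    intro x hx
    rw [mem_center_iff]
    intro y
    have := MulEquiv.congr_fun (MonoidHom.mem_ker.1 hx) y
    simp only [MulAut.conj_apply, MulAut.one_apply] at this
    rw [mul_inv_eq_iff_eq_mul] at this
    exact this.symm
  rw [← h1]
  exact (Inn K).index_mul_card
end

theorem t2_alt {n : ℕ} (hn : 5 ≤ n) : T2 (alternatingGroup (Fin n)) := by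
  by_cases h6 : n = 6
  · subst h6
    have := Fact.mk Nat.prime_three
    let _ := Fintype.ofFinite (GaloisField 3 2)
    have hF : Fintype.card (GaloisField 3 2) = 3 ^ 2 := by
      rw [← Nat.card_eq_fintype_card, GaloisField.card _ _ two_ne_zero]
    obtain ⟨e'⟩ := S0254.result hF
    obtain ⟨φ, h1, -, h2⟩ := S2602.result (by norm_num) hF (by norm_num)
    refine T2.congr ⟨2, ?_⟩ e'.symm
    rw [card_of_hom φ h1, h2]
    simp
  · have : IsPGroup 2 (Out (alternatingGroup (Fin n))) := fun x => ⟨1, by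
      obtain ⟨α, rfl⟩ := QuotientGroup.mk_surjective x
      obtain ⟨g, rfl⟩ := (S2119.result n (by omega) h6).2 α
      rw [← QuotientGroup.mk_pow, QuotientGroup.eq_one_iff, ← map_pow]
      exact ⟨⟨g ^ 2 ^ 1, by simp [Equiv.Perm.mem_alternatingGroup, pow_two]⟩, by ext x; rfl⟩⟩
    obtain ⟨k, hk⟩ := IsPGroup.iff_card.1 this
    exact ⟨k, hk.dvd⟩

theorem t2_perm {H : Type*} [Group H] {n : ℕ} (hn : 5 ≤ n) (e : H ≃* Equiv.Perm (Fin n)) :
    T2 (commutator H) :=
  (t2_alt hn).congr ((commCongr e).trans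
    (MulEquiv.subgroupCongr (alternatingGroup.commutator_perm_eq (by simpa using hn))))

theorem card2 : Fintype.card (ZMod 2) = 2 ^ 1 := rfl

theorem card3 : Fintype.card (ZMod 3) = 3 ^ 1 := rfl

theorem aniso2 : ∀ z₁ z₂ : ZMod 2, z₁ ^ 2 + 1 * z₁ * z₂ + 1 * z₂ ^ 2 = 0 → z₁ = 0 ∧ z₂ = 0 := by decide

theorem t2_plus2 {m : ℕ} (hm : 3 ≤ m) (h4 : m ≠ 4) : T2 (POmega (ZMod 2) (quadFormPlus m (ZMod 2))) := by
  rcases hm.eq_or_lt with rfl | hm
  · obtain ⟨e⟩ := S0302.result (F := ZMod 2)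
    obtain ⟨φ, h1, -, h2⟩ := S2601.result (n := 4) le_rfl card2 (by norm_num)
    refine T2.congr ⟨1, ?_⟩ e
    rw [card_of_hom φ h1, h2]
    simp
  · have := S2607.result (m := m) le_rfl card2 hm
    rw [if_neg h4] at this
    obtain ⟨e⟩ := this
    exact ⟨1, by rw [Nat.card_congr e.toEquiv]; simp⟩

theorem card_plus2 : Nat.card (Out (POmega (ZMod 2) (quadFormPlus 4 (ZMod 2)))) ∣ 24 := by
  have := S2607.result (m := 4) le_rfl card2 le_rfl
  rw [if_pos rfl] at this
  obtain ⟨e⟩ := this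
  rw [Nat.card_congr e.toEquiv]
  simp [Fintype.card_perm, Nat.factorial]

theorem t2_minus2 {m : ℕ} (hm : 2 ≤ m) : T2 (POmega (ZMod 2) (quadFormMinus m (ZMod 2) 1 1)) := by
  rcases hm.eq_or_lt with rfl | hm
  · obtain ⟨e⟩ := S0303.result (K := H30.F4) (q := 2) rfl rfl 1 1 aniso2
    obtain ⟨φ, h1, -, h2⟩ := S2603.result (K := H30.F4) (p := 2) (f := 1) (q := 2) (n := 4) le_rfl rfl rfl
      (by norm_num) (by norm_num)
    refine T2.congr ⟨1, ?_⟩ e
    rw [card_of_hom φ h1, h2]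
    simp
  · exact ⟨1, (S2605.result (m := m + 1) le_rfl card2 (by omega) 1 1 aniso2).2.dvd⟩

theorem center_congr {K L : Type*} [Group K] [Group L] (e : K ≃* L) (h : center K = ⊥) : center L = ⊥ := by
  rw [eq_bot_iff]
  intro z hz
  obtain ⟨z, rfl⟩ := e.surjective z
  have : z ∈ center K := mem_center_iff.2 fun y => e.injective (by
    rw [map_mul, map_mul]; exact mem_center_iff.1 hz _)
  rw [h, mem_bot] at this
  rw [this, map_one]; exact one_mem _

theorem t2_odd3 {m : ℕ} (hm : 2 ≤ m) (hc : center (POmega (ZMod 3) (quadFormOdd m (ZMod 3))) = ⊥) :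
    T2 (POmega (ZMod 3) (quadFormOdd m (ZMod 3))) := by
  have := Fact.mk Nat.prime_three
  rcases hm.eq_or_lt with rfl | hm
  · obtain ⟨e⟩ := S0301.result (F := ZMod 3) (by decide)
    have h1 := S0814.result 3 1 le_rfl card3 2 le_rfl (by norm_num)
    refine T2.congr ⟨1, ?_⟩ e
    rw [← card_out_mul (center_congr e hc)] at h1
    have := Nat.eq_of_mul_eq_mul_right Nat.card_pos h1
    rw [this]; simp
  · obtain ⟨e⟩ := S2604.result (m := m) le_rfl card3 (by norm_num) hm
    exact ⟨1, by rw [Nat.card_congr e.toEquiv]; simp⟩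

theorem t2_plus3 {m : ℕ} (hm : 3 ≤ m) (h4 : m ≠ 4) : T2 (POmega (ZMod 3) (quadFormPlus m (ZMod 3))) := by
  have := Fact.mk Nat.prime_three
  rcases hm.eq_or_lt with rfl | hm
  · obtain ⟨e⟩ := S0302.result (F := ZMod 3)
    obtain ⟨φ, h1, -, h2⟩ := S2601.result (n := 4) le_rfl card3 (by norm_num)
    refine T2.congr ⟨2, ?_⟩ e
    rw [card_of_hom φ h1, h2]
    simp
  · have := S2608.result (m := m) le_rfl card3 (by norm_num) hm
    rw [if_neg h4] at this
    split_ifs at this <;> obtain ⟨e⟩ := this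
    · exact ⟨2, by rw [Nat.card_congr e.toEquiv]; simp⟩
    · exact ⟨3, by rw [Nat.card_congr e.toEquiv]; simp [DihedralGroup.card]⟩

theorem card_plus3 : Nat.card (Out (POmega (ZMod 3) (quadFormPlus 4 (ZMod 3)))) ∣ 24 := by
  have := Fact.mk Nat.prime_three
  have := S2608.result (m := 4) le_rfl card3 (by norm_num) le_rfl
  rw [if_pos rfl] at this
  obtain ⟨e⟩ := this
  rw [Nat.card_congr e.toEquiv]
  simp [Fintype.card_perm, Nat.factorial]

theorem t2_minus3 {m : ℕ} (hm : 2 ≤ m) : T2 (POmega (ZMod 3) (quadFormMinus m (ZMod 3) 0 1)) := by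
  have := Fact.mk Nat.prime_three
  rcases hm.eq_or_lt with rfl | hm
  · let _ := Fintype.ofFinite (GaloisField 3 2)
    have hF : Fintype.card (GaloisField 3 2) = 3 ^ 2 := by
      rw [← Nat.card_eq_fintype_card, GaloisField.card _ _ two_ne_zero]
    obtain ⟨e⟩ := S0303.result (F := ZMod 3) (K := GaloisField 3 2) (q := 3) rfl hF 0 1 aniso3
    obtain ⟨φ, h1, -, h2⟩ := S2603.result (K := GaloisField 3 2) (p := 3) (f := 1) (q := 3) (n := 4)
      le_rfl rfl hF (by norm_num) (by norm_num)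
    refine T2.congr ⟨3, ?_⟩ e
    rw [card_of_hom φ h1, h2]
    simp
  · have := S2606.result (m := m + 1) le_rfl card3 (by norm_num) (by omega) 0 1 aniso3
    split_ifs at this <;> obtain ⟨e⟩ := this
    · exact ⟨3, by
        refine (Nat.card_congr e.toEquiv).dvd.trans ?_
        simp [DihedralGroup.card]⟩
    · exact ⟨2, by
        refine (Nat.card_congr e.toEquiv).dvd.trans ?_
        simp⟩

theorem refl_cases {n : ℕ} (hn : 5 ≤ n) {Q : QuadraticForm (ZMod 3) (Fin n → ZMod 3)}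
    (hQ : (QuadraticMap.polarBilin Q).Nondegenerate) {H : Type*} [Group H]
    (e : H ≃* reflectionSubgroup (⇑Q) 1 ⧸ center (reflectionSubgroup (⇑Q) 1))
    (hc : center (commutator H) = ⊥) :
    T2 (commutator H) ∨ Nonempty (commutator H ≃* POmega (ZMod 3) (quadFormPlus 4 (ZMod 3))) := by
  obtain ⟨e1⟩ := refl_pom hn hQ e hc
  rcases O_cases (by omega) hQ with ⟨m, rfl, ⟨e2⟩⟩ | ⟨m, rfl, ⟨e2⟩⟩ | ⟨m, rfl, ⟨e2⟩⟩
  · have e3 := e1.trans (pcommCongr e2)
    exact Or.inl ((t2_odd3 (by omega) (center_congr e3 hc)).congr e3)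
  · have e3 := e1.trans (pcommCongr e2)
    by_cases h4 : m = 4
    · subst h4; exact Or.inr ⟨e3⟩
    · exact Or.inl ((t2_plus3 (by omega) h4).congr e3)
  · exact Or.inl ((t2_minus3 (by omega)).congr (e1.trans (pcommCongr e2)))

end H80.TD
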